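import Mathlib
import Cfsg.Agent.Lib.Helper31.Siegel.Defs

/-!
# SIEGEL (S5072), package [CCASE]: the commutator case for Siegel transvection groups
-/

set_option autoImplicit false
open scoped Matrix

namespace Cfsg.Agent.Lib.Helper74.Siegel

open Cfsg.Agent.Lib.Helper31.Siegel

universe u

/-- [CCASE] from [PARAM], [EXIST], [ALG], [COMM2], [COMR] -/
theorem pkgCCase_of (hP : PkgParam.{u}) (hE : PkgExist.{u}) (hA : PkgAlg.{u})
    (hC2 : PkgComm2.{u}) (hCr : PkgComr.{u}) : PkgCCase.{u} := by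
  intro n F _ p r s t hpr hst hsp hps hpt hrs hrt
  have hcomr := hCr n F p r s t hpr hst hps hpt hrs hrt
  have hPA := hP n F p r hpr
  have hPB := hP n F s t hst
  have hPC := hP n F s p hsp
  obtain ⟨-, -, -, hA4, -, -⟩ := hA n F p r hpr
  obtain ⟨-, -, -, hB4, -, -⟩ := hA n F s t hst
  obtain ⟨-, -, -, -, hC5, hC6⟩ := hA n F s p hsp
  have hcommem : ∀ a ∈ T p r, ∀ b ∈ T s t, a * b * a⁻¹ * b⁻¹ ∈ T s p := by
    intro a ha b hb
    obtain ⟨c, hc⟩ := (hPA a).1 ha
    obtain ⟨d, hd⟩ := (hPB b).1 hb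
    exact (hPC _).2 ⟨c * d, hcomr c d a b hc hd⟩
  refine ⟨?_, ?_, ?_, ?_⟩
  · apply le_antisymm
    · rw [Subgroup.commutator_le]
      intro a ha b hb
      rw [commutatorElement_def]
      exact hcommem a ha b hb
    · intro z hz
      obtain ⟨e, he⟩ := (hPC z).1 hz
      obtain ⟨a, ha⟩ := hE n F p r hpr 1
      obtain ⟨b, hb⟩ := hE n F s t hst e
      have h1 := hcomr 1 e a b ha hb
      rw [one_mul] at h1
      have h2 : z = a * b * a⁻¹ * b⁻¹ := isSiegel_ext he h1
      rw [h2, ← commutatorElement_def]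
      exact Subgroup.commutator_mem_commutator ((hPA a).2 ⟨1, ha⟩) ((hPB b).2 ⟨e, hb⟩)
  · intro z hz x hx
    obtain ⟨e, he⟩ := (hPC z).1 hz
    have hz' := hC5 e z he
    have hle : T p r ⊔ T s t ≤ Subgroup.centralizer ({z} : Set ↥(Iso n F)) := by
      apply sup_le
      · intro a ha
        rw [Subgroup.mem_centralizer_iff]
        intro h hh
        rw [Set.mem_singleton_iff] at hh
        rw [hh]
        obtain ⟨c, hc⟩ := (hPA a).1 ha
        exact (hC2 n F p r s hpr hC6 c (-e) a z hc hz').symm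
      · intro b hb
        rw [Subgroup.mem_centralizer_iff]
        intro h hh
        rw [Set.mem_singleton_iff] at hh
        rw [hh]
        obtain ⟨d, hd⟩ := (hPB b).1 hb
        exact hC2 n F s p t hsp hst e d z b he hd
    have h3 := hle hx
    rw [Subgroup.mem_centralizer_iff] at h3
    exact h3 z rfl
  · intro a ha ha1
    obtain ⟨c, hc⟩ := (hPA a).1 ha
    have hc0 : c ≠ 0 := fun h => ha1 ((hA4 c a hc).2 h)
    apply le_antisymm
    · rw [Subgroup.closure_le]
      rintro _ ⟨b, hb, rfl⟩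
      exact hcommem a ha b hb
    · intro z hz
      obtain ⟨e, he⟩ := (hPC z).1 hz
      obtain ⟨b, hb⟩ := hE n F s t hst (e / c)
      have h1 := hcomr c (e / c) a b hc hb
      have h0 : c * (e / c) = e := by field_simp
      rw [h0] at h1
      have h2 : z = a * b * a⁻¹ * b⁻¹ := isSiegel_ext he h1
      rw [h2]
      exact Subgroup.subset_closure ⟨b, (hPB b).2 ⟨_, hb⟩, rfl⟩
  · intro b hb hb1
    obtain ⟨d, hd⟩ := (hPB b).1 hb
    have hd0 : d ≠ 0 := fun h => hb1 ((hB4 d b hd).2 h)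
    apply le_antisymm
    · rw [Subgroup.closure_le]
      rintro _ ⟨a, ha, rfl⟩
      exact hcommem a ha b hb
    · intro z hz
      obtain ⟨e, he⟩ := (hPC z).1 hz
      obtain ⟨a, ha⟩ := hE n F p r hpr (e / d)
      have h1 := hcomr (e / d) d a b ha hd
      have h0 : e / d * d = e := by field_simp
      rw [h0] at h1
      have h2 : z = a * b * a⁻¹ * b⁻¹ := isSiegel_ext he h1
      rw [h2]
      exact Subgroup.subset_closure ⟨a, (hPA a).2 ⟨_, ha⟩, rfl⟩

end Cfsg.Agent.Lib.Helper74.Siegel
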