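import Mathlib
import Cfsg.Agent.Lib.Helper31.Siegel.Defs

/-!
# SIEGEL (S5072), package [NOTR1]: the commutator configuration is not a rank one pair
-/

set_option autoImplicit false
open scoped Matrix

namespace Cfsg.Agent.Lib.Helper74.Siegel

open Cfsg.Agent.Lib.Helper31.Siegel

universe u

/-- [NOTR1] from [PARAM], [EXIST], [ALG], [DUAL] -/
theorem pkgNotR1_of (hP : PkgParam.{u}) (hE : PkgExist.{u}) (hA : PkgAlg.{u})
    (hD : PkgDual.{u}) : PkgNotR1.{u} := by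
  intro n F _ p r s t hpr hst hsp hps hpt hrs hrt hR1
  have hPA := hP n F p r hpr
  have hPB := hP n F s t hst
  obtain ⟨-, -, -, hA4, -, -⟩ := hA n F p r hpr
  obtain ⟨-, -, hB3, -, -, -⟩ := hA n F s t hst
  have hBpr : B p r = 0 := by
    have h1 := Q_add p r
    rw [hpr.2.2.2, hpr.2.1, hpr.2.2.1] at h1
    simpa using h1.symm
  have hBpp : B p p = 0 := by rw [B_self, hpr.2.1, mul_zero]
  obtain ⟨a, ha⟩ := hE n F p r hpr 1
  have haA : a ∈ T p r := (hPA a).2 ⟨1, ha⟩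
  have ha1 : a ≠ 1 := fun h => one_ne_zero ((hA4 1 a ha).1 h)
  obtain ⟨b, hbB, hb1, hconj⟩ := hR1.cond_left a haA ha1
  obtain ⟨d, hd⟩ := (hPB b).1 hbB
  have hbinv := hB3 d b hd
  have hmem : b⁻¹ * a * b ∈ Cfsg.conjBy (T p r) b⁻¹ := by
    refine Subgroup.mem_map.mpr ⟨a, haA, ?_⟩
    simp [MulAut.conj_apply]
  rw [hconj] at hmem
  obtain ⟨b', hb'B, hb'eq⟩ := Subgroup.mem_map.mp hmem
  have hE1 : a⁻¹ * b' * a = b⁻¹ * a * b := by
    rw [← hb'eq]; simp [MulAut.conj_apply]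
  obtain ⟨d', hd'⟩ := (hPB b').1 hb'B
  obtain ⟨w', hw'⟩ := hD n F 2 ![p, r] hpr.1
  have hv0p : B (w' 1) p = 0 := by
    have h1 := hw' 0 1
    rw [B_comm]; simpa using h1
  have hv0r : B (w' 1) r = 1 := by
    have h1 := hw' 1 1
    rw [B_comm]; simpa using h1
  obtain ⟨v0, hv0⟩ : ∃ v0, v0 = w' 1 := ⟨_, rfl⟩
  rw [← hv0] at hv0p hv0r
  have hav0 : mat a *ᵥ v0 = v0 + p := by
    rw [ha v0, hv0r, hv0p]; simp
  have hap : mat a *ᵥ p = p := by
    rw [ha p, hBpr, hBpp]; simp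
  have hbp : mat b⁻¹ *ᵥ p = p := by
    rw [hbinv p, hpt, hps]; simp
  obtain ⟨u, hu⟩ : ∃ u, u = mat b⁻¹ *ᵥ v0 := ⟨_, rfl⟩
  obtain ⟨y, hy⟩ : ∃ y, y = mat a *ᵥ u := ⟨_, rfl⟩
  have h1 : mat (b⁻¹ * a * b) *ᵥ u = u + p := by
    rw [mul_act, mul_act, hu, act_inv, hav0, Matrix.mulVec_add, hbp]
  have h2 : mat (a⁻¹ * b' * a) *ᵥ u = mat a⁻¹ *ᵥ (mat b' *ᵥ y) := by
    rw [mul_act, mul_act, hy]
  rw [hE1, h1] at h2
  have h3 : mat b' *ᵥ y = y + p := by
    have h4 := congrArg (fun v => mat a *ᵥ v) h2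
    rw [act_inv, Matrix.mulVec_add, hap, ← hy] at h4
    exact h4.symm
  rw [hd' y] at h3
  have h4 : p = (d' * B y t) • s - (d' * B y s) • t := by
    rw [add_sub_assoc] at h3
    exact (add_left_cancel h3).symm
  have h5 : d' * B y s = 0 := by
    have h6 : B r p = 0 := by rw [B_comm, hBpr]
    rw [h4, B_sub_right, B_smul_right, B_smul_right, hrs, hrt] at h6
    linear_combination -h6
  rw [h5, zero_smul, sub_zero] at h4
  have hli := hsp.1
  rw [LinearIndependent.pair_iff] at hli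
  have h7 := hli (d' * B y t) (-1) (by rw [← h4]; simp)
  exact one_ne_zero (neg_eq_zero.mp h7.2)

end Cfsg.Agent.Lib.Helper74.Siegel
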